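import Mathlib
import Cfsg.Agent.Lib.NSE.Basic
import Cfsg.Agent.S0494
import Cfsg.Agent.S0497

/-!
# Auxiliary lemmas for the recognition of `A₄`, `A₅`, `A₆`
-/

set_option autoImplicit false

namespace Cfsg.Agent.Lib.NSE.Main

open Cfsg.Agent.Lib.NSE.Basic

variable {G : Type*} [Group G] [Finite G]

/-- Frobenius with explicit divisors. -/
theorem frob_of (m : ℕ) (D : Finset ℕ) (hD : m.divisors = D) (hm : m ∣ Nat.card G) :
    m ∣ ∑ d ∈ D, sc G d := hD ▸ frob hm

theorem frob_prime {p : ℕ} (hp : p.Prime) (hm : p ∣ Nat.card G) : p ∣ 1 + sc G p := by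
  have := frob (G := G) hm
  rw [hp.divisors, Finset.sum_pair hp.one_lt.ne, sc_one] at this
  exact this

/-- A value `v` odd and different from `1` attained by `sc` is attained at `2`. -/
theorem sc_two_of_odd (v : ℕ) (hv : Odd v) (hv1 : v ≠ 1) (h : ∃ m, sc G m = v) : sc G 2 = v := by
  obtain ⟨m, hm⟩ := h
  rcases Nat.lt_or_ge 2 m with h2 | h2
  · exfalso
    have h3 := Nat.totient_even h2
    have h4 : m.totient ∣ v := hm ▸ totient_dvd_sc m
    have h5 : Even v := h3.trans_dvd h4
    exact (Nat.not_even_iff_odd.mpr hv) h5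
  · interval_cases m
    · rw [sc_zero] at hm
      subst hm
      simp at hv
    · rw [sc_one] at hm
      exact absurd hm.symm hv1
    · exact hm

theorem dvd_of_smooth (n a b : ℕ) (hn : n ≠ 0) (hp : ∀ p : ℕ, p.Prime → p ∣ n → p = 2 ∨ p = 3)
    (h2 : ¬ 2 ^ (a + 1) ∣ n) (h3 : ¬ 3 ^ (b + 1) ∣ n) : n ∣ 2 ^ a * 3 ^ b := by
  have hne : 2 ^ a * 3 ^ b ≠ 0 := by positivity
  rw [← Nat.factorization_prime_le_iff_dvd hn hne]
  intro p hpp
  by_cases hd : p ∣ n
  · rcases hp p hpp hd with rfl | rfl
    · have h4 : n.factorization 2 ≤ a := by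
        by_contra hlt
        push Not at hlt
        exact h2 ((Nat.Prime.pow_dvd_iff_le_factorization Nat.prime_two hn).mpr hlt)
      exact h4.trans ((Nat.Prime.pow_dvd_iff_le_factorization Nat.prime_two hne).mp (dvd_mul_right _ _))
    · have h4 : n.factorization 3 ≤ b := by
        by_contra hlt
        push Not at hlt
        exact h3 ((Nat.Prime.pow_dvd_iff_le_factorization Nat.prime_three hn).mpr hlt)
      exact h4.trans ((Nat.Prime.pow_dvd_iff_le_factorization Nat.prime_three hne).mp (dvd_mul_left _ _))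
  · rw [Nat.factorization_eq_zero_of_not_dvd hd]
    exact Nat.zero_le _

/-- The number of Sylow subgroups, in case of prime exponent one. -/
theorem sc_prime_sylow (p : ℕ) [hp : Fact p.Prime] (h1 : p ∣ Nat.card G) (h2 : ¬ p ^ 2 ∣ Nat.card G) :
    sc G p = (p - 1) * Nat.card (Sylow p G) := by
  have := sc_sylow (G := G) p 1 (by rwa [pow_one]) (by simpa using h2)
    (by rw [pow_one]; exact sc_ne_zero_of_prime hp.out h1)
  rwa [pow_one, Nat.totient_prime hp.out] at this

theorem card_sylow_dvd (p : ℕ) [hp : Fact p.Prime] : Nat.card (Sylow p G) ∣ Nat.card G := by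
  obtain ⟨P⟩ : Nonempty (Sylow p G) := inferInstance
  have h1 := P.card_dvd_index
  exact h1.trans (Subgroup.index_dvd_card _)

/-- Simplicity criterion for groups of order 60 and 360. -/
theorem isSimple_of (hN : (Nat.card G = 60 ∧ sc G 3 = 20 ∧ sc G 5 = 24) ∨
      (Nat.card G = 360 ∧ sc G 3 = 80 ∧ sc G 5 = 144))
    (h10 : sc G 10 = 0) (h15 : sc G 15 = 0) : IsSimpleGroup G := by
  classical
  have h25 : ¬ 5 ^ 2 ∣ Nat.card G := by
    rcases hN with ⟨h, -⟩ | ⟨h, -⟩ <;> rw [h] <;> norm_num
  have hN5 : 5 ∣ Nat.card G := by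
    rcases hN with ⟨h, -⟩ | ⟨h, -⟩ <;> rw [h] <;> norm_num
  have hN0 : Nat.card G ≠ 0 := Nat.card_pos.ne'
  have : Fact (Nat.Prime 5) := ⟨by norm_num⟩
  have hno : ∀ q : ℕ, q.Prime → q ≠ 5 → sc G (5 * q) = 0 := by
    intro q hq hq5
    by_cases hq2 : q = 2
    · subst hq2; simpa using h10
    by_cases hq3 : q = 3
    · subst hq3; simpa using h15
    apply sc_eq_zero_of_not_dvd
    intro hd
    have h4 : q ∣ Nat.card G := (dvd_mul_left _ _).trans hd
    have h5 : q ∣ 2 ^ 3 * 3 ^ 2 * 5 := by
      rcases hN with ⟨h, -⟩ | ⟨h, -⟩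
      · rw [h] at h4
        exact h4.trans (by norm_num)
      · rw [h] at h4
        exact h4.trans (by norm_num)
    rcases (Nat.Prime.dvd_mul hq).mp h5 with h6 | h6
    · rcases (Nat.Prime.dvd_mul hq).mp h6 with h7 | h7
      · exact hq2 ((Nat.prime_dvd_prime_iff_eq hq Nat.prime_two).mp (hq.dvd_of_dvd_pow h7))
      · exact hq3 ((Nat.prime_dvd_prime_iff_eq hq Nat.prime_three).mp (hq.dvd_of_dvd_pow h7))
    · exact hq5 ((Nat.prime_dvd_prime_iff_eq hq Nat.prime_five).mp h6)
  obtain ⟨y, hy⟩ := exists_prime_orderOf_dvd_card' (G := G) 5 hN5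
  have hCy := card_centralizer_eq (G := G) 5 h25 hno y hy
  have hnt : Nontrivial G := by
    rw [← Finite.one_lt_card_iff_nontrivial]
    rcases hN with ⟨h, -⟩ | ⟨h, -⟩ <;> rw [h] <;> norm_num
  refine ⟨fun K hK => ?_⟩
  by_contra hcon
  push Not at hcon
  obtain ⟨hbot, htop⟩ := hcon
  have hk1 : Nat.card K ≠ 1 := fun h => hbot (Subgroup.eq_bot_of_card_eq K h)
  have hi1 : K.index ≠ 1 := fun h => htop (Subgroup.index_eq_one.mp h)
  have hmul := Subgroup.card_mul_index K
  set k := Nat.card K with hkdef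
  have hk0 : 0 < k := Nat.card_pos
  have hsc : ∀ L : Finset ℕ, ∑ d ∈ L, sc K d ≤ k := fun L => sum_le L
  have hs1 : sc K 1 = 1 := sc_one
  by_cases h5k : 5 ∣ k
  · -- all elements of order 5 lie in K
    have h5i : Nat.Coprime 5 K.index := by
      rw [Nat.Prime.coprime_iff_not_dvd (by norm_num)]
      intro h5i
      apply h25
      rw [← hmul, pow_two]
      exact mul_dvd_mul h5k h5i
    have h1 := sc_le_sc_of_coprime K 5 h5i
    have h2 := hsc {1, 5}
    rw [Finset.sum_pair (by norm_num), hs1] at h2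
    have hi2 : K.index = 2 := by
      rcases hN with ⟨h, h3, h55⟩ | ⟨h, h3, h55⟩
      · rw [h] at hmul
        have hi : K.index ∣ 60 := ⟨k, by rw [← hmul]; ring⟩
        have hle : K.index ≤ 60 := Nat.le_of_dvd (by norm_num) hi
        have hpos : 0 < K.index := Nat.pos_of_ne_zero (by rintro h0; rw [h0] at hmul; omega)
        interval_cases K.index <;> omega
      · rw [h] at hmul
        have hi : K.index ∣ 360 := ⟨k, by rw [← hmul]; ring⟩
        have hle : K.index ≤ 14 := by
          by_contra hlt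
          push Not at hlt
          have : 145 * 15 ≤ k * K.index := Nat.mul_le_mul (by omega) (by omega)
          omega
        have hpos : 0 < K.index := Nat.pos_of_ne_zero (by rintro h0; rw [h0] at hmul; omega)
        interval_cases K.index <;> omega
    have h3i := sc_le_sc_of_coprime K 3 (by rw [hi2]; norm_num)
    have h5i' := sc_le_sc_of_coprime K 5 (by rw [hi2]; norm_num)
    have h4 := hsc {1, 3, 5}
    rw [Finset.sum_insert (by norm_num), Finset.sum_pair (by norm_num), hs1] at h4
    rw [hi2] at hmul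
    rcases hN with ⟨h, h3, h55⟩ | ⟨h, h3, h55⟩ <;> omega
  · -- fixed point free action
    have hfree : ∀ z : G, z ∈ K → z * y = y * z → z = 1 := by
      intro z hzK hz
      have hzC : z ∈ Subgroup.centralizer ({y} : Set G) :=
        Subgroup.mem_centralizer_singleton_iff.mpr hz
      have h1 : orderOf z ∣ 5 := by
        have := Subgroup.orderOf_dvd_natCard _ hzC
        rwa [hCy] at this
      have h2 : orderOf z ∣ k := Subgroup.orderOf_dvd_natCard _ hzK
      rcases (Nat.dvd_prime Nat.prime_five).mp h1 with h3 | h3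
      · exact orderOf_eq_one_iff.mp h3
      · rw [h3] at h2
        exact absurd h2 h5k
    have hmod := card_modEq_one_of_fixedPointFree K 5 y hy hfree
    have hkmod : k % 5 = 1 := hmod
    have hk : k = 6 ∨ k = 36 := by
      rcases hN with ⟨h, h3, h55⟩ | ⟨h, h3, h55⟩
      · rw [h] at hmul
        have hd : k ∣ 60 := ⟨K.index, hmul.symm⟩
        have hle : k ≤ 60 := Nat.le_of_dvd (by norm_num) hd
        interval_cases k <;> omega
      · rw [h] at hmul
        have hd : k ∣ 360 := ⟨K.index, hmul.symm⟩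
        have hmem : k ∈ Nat.divisors 360 := Nat.mem_divisors.mpr ⟨hd, by norm_num⟩
        rw [show Nat.divisors 360 = {1, 2, 3, 4, 5, 6, 8, 9, 10, 12, 15, 18, 20, 24, 30, 36, 40,
          45, 60, 72, 90, 120, 180, 360} by decide +kernel] at hmem
        simp only [Finset.mem_insert, Finset.mem_singleton] at hmem
        omega
    rcases hk with hk | hk
    · -- order 6
      have hk2 : 2 ∣ k := by omega
      have hk3 : 3 ∣ k := by omega
      have : Fact (Nat.Prime 3) := ⟨by norm_num⟩
      have : Fact (Nat.Prime 2) := ⟨by norm_num⟩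
      have hK2 : sc K 2 ≠ 0 := sc_ne_zero_of_prime Nat.prime_two hk2
      obtain ⟨z, hz⟩ := exists_prime_orderOf_dvd_card' (G := K) 3 hk3
      have h1 := hsc {1, 2, 3}
      rw [Finset.sum_insert (by norm_num), Finset.sum_pair (by norm_num), hs1] at h1
      have h2 := index_centralizer_le_of_mem K z
      rw [hz] at h2
      have hidx : (Subgroup.centralizer ({(z : G)} : Set G)).index ≤ 4 := by omega
      have hmulC := Subgroup.card_mul_index (Subgroup.centralizer ({(z : G)} : Set G))
      have h5C : 5 ∣ Nat.card (Subgroup.centralizer ({(z : G)} : Set G)) := by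
        have h3 : 5 ∣ Nat.card (Subgroup.centralizer ({(z : G)} : Set G)) *
            (Subgroup.centralizer ({(z : G)} : Set G)).index := by
          rw [hmulC]; exact hN5
        rcases (Nat.Prime.dvd_mul (by norm_num)).mp h3 with h4 | h4
        · exact h4
        · exfalso
          have h5 : (Subgroup.centralizer ({(z : G)} : Set G)).index ≠ 0 := by
            rintro h0
            rw [h0] at hmulC
            omega
          have := Nat.le_of_dvd (Nat.pos_of_ne_zero h5) h4
          omega
      obtain ⟨w, hw⟩ := exists_prime_orderOf_dvd_card' (G := Subgroup.centralizer ({(z : G)} : Set G)) 5 h5C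
      have hw' : orderOf (w : G) = 5 := by rwa [Subgroup.orderOf_coe]
      have hz' : orderOf (z : G) = 3 := by rwa [Subgroup.orderOf_coe]
      have hc : Commute (z : G) (w : G) := (Subgroup.mem_centralizer_singleton_iff.mp w.2).symm
      have h15' := hc.orderOf_mul_eq_mul_orderOf_of_coprime (by rw [hz', hw']; norm_num)
      rw [hz', hw'] at h15'
      exact (sc_ne_zero_iff.mpr ⟨_, h15'⟩) h15
    · -- order 36: only for 360
      rcases hN with ⟨h, h3, h55⟩ | ⟨h, h3, h55⟩
      · rw [h, hk] at hmul
        omega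
      · rw [h, hk] at hmul
        have hi : K.index = 10 := by omega
        have h31 := sc_le_sc_of_coprime K 3 (by rw [hi]; norm_num)
        have h1 := hsc {1, 3}
        rw [Finset.sum_pair (by norm_num), hs1] at h1
        omega

end Cfsg.Agent.Lib.NSE.Main
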