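import Mathlib
import Cfsg.Agent.Lib.NSE.Main

/-!
# Arithmetic and recognition for `A₄`
-/

set_option autoImplicit false

namespace Cfsg.Agent.Lib.NSE.A4

open Cfsg.Agent.Lib.NSE.Basic Cfsg.Agent.Lib.NSE.Main

variable {G : Type*} [Group G] [Finite G]

/-- The values of `sc`. -/
def Val (v : ℕ) : Prop := v = 0 ∨ v = 1 ∨ v = 3 ∨ v = 8

theorem prime_aux : ∀ p ∈ Finset.range 10, ∀ v ∈ ({1, 3, 8} : Finset ℕ),
    2 ≤ p → p ∣ 1 + v → (p - 1) ∣ v → p ∈ ({2, 3, 4, 9} : Finset ℕ) := by
  decide +kernel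

section
variable (hV : ∀ m, Val (sc G m))
  (hE : ∀ v : ℕ, (v = 1 ∨ v = 3 ∨ v = 8) → ∃ m, sc G m = v)

include hV in
theorem primes {p : ℕ} (hp : p.Prime) (hd : p ∣ Nat.card G) : p = 2 ∨ p = 3 := by
  have h0 := sc_ne_zero_of_prime hp hd
  have h1 := frob_prime hp hd
  have h2 := totient_dvd_sc (G := G) p
  rw [Nat.totient_prime hp] at h2
  have h3 := hV p
  have hv : sc G p ∈ ({1, 3, 8} : Finset ℕ) := by
    simp only [Finset.mem_insert, Finset.mem_singleton]
    unfold Val at h3
    omega
  have hle : p ≤ 9 := by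
    have := Nat.le_of_dvd (by omega) h1
    simp only [Finset.mem_insert, Finset.mem_singleton] at hv
    omega
  have h4 := prime_aux p (Finset.mem_range.mpr (by omega)) _ hv hp.two_le h1 h2
  simp only [Finset.mem_insert, Finset.mem_singleton] at h4
  rcases h4 with rfl | rfl | rfl | rfl
  · simp
  · simp
  · norm_num at hp
  · norm_num at hp

include hV in
theorem val (m t : ℕ) (ht : m.totient = t) : Val (sc G m) ∧ t ∣ sc G m :=
  ⟨hV m, ht ▸ totient_dvd_sc m⟩

include hV hE in
theorem main : Nat.card G = 12 ∧ sc G 3 = 8 := by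
  have hp := @primes G _ _ hV
  have h1 : sc G 1 = 1 := sc_one
  have h2 : sc G 2 = 3 := sc_two_of_odd 3 (by decide) (by norm_num) (hE 3 (by norm_num))
  have hN0 : Nat.card G ≠ 0 := Nat.card_pos.ne'
  have hm0 : ∀ m : ℕ, sc G m ≠ 0 → m ≠ 0 := by
    rintro m hm rfl
    exact hm sc_zero
  have h9 : sc G 9 = 0 := by
    obtain ⟨v1, v2⟩ := val hV 9 6 (by decide)
    unfold Val at v1
    omega
  have h32 : sc G 32 = 0 := by
    obtain ⟨v1, v2⟩ := val hV 32 16 (by decide)
    unfold Val at v1
    omega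
  have h3v : (3 ∣ Nat.card G ∧ sc G 3 = 8) ∨ (¬ 3 ∣ Nat.card G ∧ sc G 3 = 0) := by
    by_cases h3 : 3 ∣ Nat.card G
    · left
      refine ⟨h3, ?_⟩
      have f := frob_prime Nat.prime_three h3
      have h0 := sc_ne_zero_of_prime Nat.prime_three h3
      have := hV 3
      unfold Val at this
      omega
    · exact Or.inr ⟨h3, sc_eq_zero_of_not_dvd h3⟩
  have h6 : sc G 6 = 0 := by
    rcases h3v with ⟨h3, h33⟩ | ⟨h3, h33⟩
    · have hN2 : 2 ∣ Nat.card G := dvd_card_of_sc_ne_zero (by omega)
      have f := frob_of (G := G) 6 {1, 2, 3, 6} (by decide) (by omega)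
      have f' : 6 ∣ sc G 1 + (sc G 2 + (sc G 3 + sc G 6)) := by simpa using f
      have v := hV 6
      unfold Val at v
      omega
    · exact sc_eq_zero_of_dvd h33 (by norm_num)
  have hL : ∀ m, sc G m ≠ 0 → m ∈ ({1, 2, 3, 4, 8, 16} : Finset ℕ) := by
    intro m hm
    have hd := dvd_of_smooth m 4 1 (hm0 m hm)
      (fun p hpp hdp => hp hpp (hdp.trans (dvd_card_of_sc_ne_zero hm)))
      (fun hd => hm (sc_eq_zero_of_dvd h32 (by simpa using hd)))
      (fun hd => hm (sc_eq_zero_of_dvd h9 (by simpa using hd)))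
    have hmem : m ∈ Nat.divisors 48 := Nat.mem_divisors.mpr ⟨by simpa using hd, by norm_num⟩
    rw [show Nat.divisors 48 = {1, 2, 3, 4, 6, 8, 12, 16, 24, 48} by decide +kernel] at hmem
    simp only [Finset.mem_insert, Finset.mem_singleton] at hmem ⊢
    rcases hmem with rfl | rfl | rfl | rfl | rfl | rfl | rfl | rfl | rfl | rfl
    · simp
    · simp
    · simp
    · simp
    · exact absurd h6 hm
    · simp
    · exact absurd (sc_eq_zero_of_dvd h6 (by norm_num)) hm
    · simp
    · exact absurd (sc_eq_zero_of_dvd h6 (by norm_num)) hm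
    · exact absurd (sc_eq_zero_of_dvd h6 (by norm_num)) hm
  have hsum := card_eq_sum_of (G := G) _ hL
  have hsum' : Nat.card G = sc G 1 + (sc G 2 + (sc G 3 + (sc G 4 + (sc G 8 + sc G 16)))) := by
    simpa using hsum
  have hv8 : sc G 3 = 8 ∨ sc G 4 = 8 ∨ sc G 8 = 8 ∨ sc G 16 = 8 := by
    obtain ⟨m, hm⟩ := hE 8 (by norm_num)
    have := hL m (by omega)
    simp only [Finset.mem_insert, Finset.mem_singleton] at this
    rcases this with rfl | rfl | rfl | rfl | rfl | rfl
    · omega
    · omega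
    · simp [hm]
    · simp [hm]
    · simp [hm]
    · simp [hm]
  obtain ⟨v1, v2⟩ := val hV 4 2 (by decide)
  obtain ⟨v3, v4⟩ := val hV 8 4 (by decide)
  obtain ⟨v5, v6⟩ := val hV 16 8 (by decide)
  unfold Val at v1 v3 v5
  have h5 : ¬ 5 ∣ Nat.card G := fun h => by
    rcases hp Nat.prime_five h with h | h <;> omega
  have h7 : ¬ 7 ∣ Nat.card G := fun h => by
    rcases hp (by norm_num : Nat.Prime 7) h with h | h <;> omega
  have h36 : Nat.card G ≠ 36 := by
    intro h
    have h16 : sc G 16 ≠ 0 := by omega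
    have := dvd_card_of_sc_ne_zero h16
    omega
  have hN : Nat.card G = 12 := by
    rcases h3v with ⟨h3, h33⟩ | ⟨h3, h33⟩ <;> omega
  refine ⟨hN, ?_⟩
  rcases h3v with ⟨h3, h33⟩ | ⟨h3, h33⟩
  · exact h33
  · omega

end

/-- A group of order 12 with 8 elements of order 3 is `A₄`. -/
theorem iso (hN : Nat.card G = 12) (h3 : sc G 3 = 8) :
    Nonempty (G ≃* alternatingGroup (Fin 4)) := by
  classical
  have hp3 : Fact (Nat.Prime 3) := ⟨by norm_num⟩
  have h3N : 3 ∣ Nat.card G := by omega
  have h9N : ¬ 3 ^ 2 ∣ Nat.card G := by rw [hN]; norm_num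
  have n3 := sc_prime_sylow (G := G) 3 h3N h9N
  have hn : Nat.card (Sylow 3 G) = 4 := by omega
  have hcardS : ∀ P : Sylow 3 G, Nat.card P = 3 := by
    intro P
    rw [P.card_eq_multiplicity]
    have hfac : (Nat.card G).factorization 3 = 1 := by
      have h0 : Nat.card G ≠ 0 := Nat.card_pos.ne'
      apply le_antisymm
      · by_contra hlt
        push Not at hlt
        exact h9N ((Nat.Prime.pow_dvd_iff_le_factorization hp3.out h0).mpr hlt)
      · apply (Nat.Prime.pow_dvd_iff_le_factorization hp3.out h0).mp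
        rw [pow_one]
        exact h3N
    rw [hfac, pow_one]
  have hnorm : ∀ P : Sylow 3 G, Subgroup.normalizer ((P : Subgroup G) : Set G) = P := by
    intro P
    have h1 : 4 = (Subgroup.normalizer ((P : Subgroup G) : Set G)).index := by
      rw [← hn]; exact P.card_eq_index_normalizer
    have h2 := Subgroup.card_mul_index (Subgroup.normalizer ((P : Subgroup G) : Set G))
    rw [← h1, hN] at h2
    have h4 : Nat.card (Subgroup.normalizer ((P : Subgroup G) : Set G)) = 3 := by omega
    symm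
    apply Subgroup.eq_of_le_of_card_ge Subgroup.le_normalizer
    rw [h4, hcardS P]
  -- the action on the Sylow subgroups is faithful
  let φ0 : G →* Equiv.Perm (Sylow 3 G) := MulAction.toPermHom G (Sylow 3 G)
  have hinj0 : Function.Injective φ0 := by
    rw [injective_iff_map_eq_one]
    intro g hg
    have hmem : ∀ P : Sylow 3 G, g ∈ (P : Subgroup G) := by
      intro P
      have h5 : g • P = P := by
        have := congrArg (fun f : Equiv.Perm (Sylow 3 G) => f P) hg
        exact this
      rw [Sylow.smul_eq_iff_mem_normalizer] at h5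
      rw [← hnorm P]
      exact h5
    by_contra hg1
    obtain ⟨P⟩ : Nonempty (Sylow 3 G) := inferInstance
    have hQ : ∃ Q : Sylow 3 G, Q ≠ P := by
      by_contra hall
      push Not at hall
      have : Nat.card (Sylow 3 G) ≤ 1 := by
        have : Subsingleton (Sylow 3 G) := ⟨fun a b => (hall a).trans (hall b).symm⟩
        exact Finite.card_le_one_iff_subsingleton.mpr this
      omega
    obtain ⟨Q, hQP⟩ := hQ
    apply hQP
    have hz : ∀ R : Sylow 3 G, Subgroup.zpowers g = (R : Subgroup G) := by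
      intro R
      apply Subgroup.eq_of_le_of_card_ge (Subgroup.zpowers_le.mpr (hmem R))
      rw [hcardS R, Nat.card_zpowers]
      have h7 : orderOf g ∣ Nat.card R := Subgroup.orderOf_dvd_natCard _ (hmem R)
      rw [hcardS R] at h7
      rcases (Nat.dvd_prime Nat.prime_three).mp h7 with h8 | h8
      · exact absurd (orderOf_eq_one_iff.mp h8) hg1
      · omega
    exact Sylow.ext ((hz Q).symm.trans (hz P))
  have hS : Nonempty (Sylow 3 G ≃ Fin 4) := by
    have := Fintype.ofFinite (Sylow 3 G)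
    have hc : Fintype.card (Sylow 3 G) = 4 := by rw [← Nat.card_eq_fintype_card]; exact hn
    exact ⟨Fintype.equivFinOfCardEq hc⟩
  obtain ⟨e⟩ := hS
  let φ : G →* Equiv.Perm (Fin 4) := (Equiv.permCongrHom e).toMonoidHom.comp φ0
  have hinj : Function.Injective φ := (Equiv.permCongrHom e).injective.comp hinj0
  have hrange : φ.range = alternatingGroup (Fin 4) := by
    apply Equiv.Perm.eq_alternatingGroup_of_index_eq_two
    have h1 := Subgroup.card_mul_index φ.range
    have h2 : Nat.card φ.range = 12 := by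
      rw [← hN]
      exact Nat.card_congr (MonoidHom.ofInjective hinj).toEquiv.symm
    have h3' : Nat.card (Equiv.Perm (Fin 4)) = 24 := by
      rw [Nat.card_eq_fintype_card, Fintype.card_perm]
      rfl
    rw [h2, h3'] at h1
    omega
  exact ⟨(MonoidHom.ofInjective hinj).trans (MulEquiv.subgroupCongr hrange)⟩

end Cfsg.Agent.Lib.NSE.A4
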