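import Mathlib
import Cfsg.Agent.Lib.NSE.Main

/-!
# Arithmetic for `A₅`
-/

set_option autoImplicit false

namespace Cfsg.Agent.Lib.NSE.A5

open Cfsg.Agent.Lib.NSE.Basic Cfsg.Agent.Lib.NSE.Main

variable {G : Type*} [Group G] [Finite G]

/-- The values of `sc`. -/
def Val (v : ℕ) : Prop := v = 0 ∨ v = 1 ∨ v = 15 ∨ v = 20 ∨ v = 24

theorem prime_aux : ∀ p ∈ Finset.range 26, ∀ v ∈ ({1, 15, 20, 24} : Finset ℕ),
    2 ≤ p → p ∣ 1 + v → (p - 1) ∣ v → p ∈ ({2, 3, 4, 5, 16, 21, 25} : Finset ℕ) := by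
  decide +kernel

theorem vs2 (v : ℕ) (h : Val v) (h2 : 2 ∣ v) : v = 0 ∨ v = 20 ∨ v = 24 := by
  unfold Val at h
  omega

theorem vs8 (v : ℕ) (h : Val v) (h2 : 8 ∣ v) : v = 0 ∨ v = 24 := by
  unfold Val at h
  omega

section
variable (hV : ∀ m, Val (sc G m))
  (hE : ∀ v : ℕ, (v = 1 ∨ v = 15 ∨ v = 20 ∨ v = 24) → ∃ m, sc G m = v)

include hE in
theorem s2 : sc G 2 = 15 := sc_two_of_odd 15 (by decide) (by norm_num) (hE 15 (by norm_num))

include hV in
theorem primes {p : ℕ} (hp : p.Prime) (hd : p ∣ Nat.card G) : p = 2 ∨ p = 3 ∨ p = 5 := by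
  have h0 := sc_ne_zero_of_prime hp hd
  have h1 := frob_prime hp hd
  have h2 := totient_dvd_sc (G := G) p
  rw [Nat.totient_prime hp] at h2
  have h3 := hV p
  have hv : sc G p ∈ ({1, 15, 20, 24} : Finset ℕ) := by
    simp only [Finset.mem_insert, Finset.mem_singleton]
    unfold Val at h3
    omega
  have hle : p ≤ 25 := by
    have := Nat.le_of_dvd (by omega) h1
    simp only [Finset.mem_insert, Finset.mem_singleton] at hv
    omega
  have h4 := prime_aux p (Finset.mem_range.mpr (by omega)) _ hv hp.two_le h1 h2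
  simp only [Finset.mem_insert, Finset.mem_singleton] at h4
  rcases h4 with rfl | rfl | rfl | rfl | rfl | rfl | rfl
  · simp
  · simp
  · norm_num at hp
  · simp
  · norm_num at hp
  · norm_num at hp
  · norm_num at hp

include hV in
theorem val (m t : ℕ) (ht : m.totient = t) : Val (sc G m) ∧ t ∣ sc G m :=
  ⟨hV m, ht ▸ totient_dvd_sc m⟩

include hV in
theorem s3 (h : 3 ∣ Nat.card G) : sc G 3 = 20 := by
  have f := frob_prime Nat.prime_three h
  have h0 := sc_ne_zero_of_prime Nat.prime_three h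
  have := hV 3
  unfold Val at this
  omega

include hV in
theorem s5 (h : 5 ∣ Nat.card G) : sc G 5 = 24 := by
  have f := frob_prime Nat.prime_five h
  have h0 := sc_ne_zero_of_prime Nat.prime_five h
  have := hV 5
  unfold Val at this
  omega

end

section
variable (hV : ∀ m, Val (sc G m))
  (hE : ∀ v : ℕ, (v = 1 ∨ v = 15 ∨ v = 20 ∨ v = 24) → ∃ m, sc G m = v)
include hV hE

theorem case5 (h5 : 5 ∣ Nat.card G) :
    Nat.card G = 60 ∧ sc G 3 = 20 ∧ sc G 5 = 24 ∧ sc G 10 = 0 ∧ sc G 15 = 0 := by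
  have hp5 : Nat.Prime 5 := by norm_num
  have : Fact (Nat.Prime 5) := ⟨hp5⟩
  have h1 : sc G 1 = 1 := sc_one
  have h2 := s2 hE
  have h55 := s5 hV h5
  have z : ∀ m d, sc G d = 0 → d ∣ m → sc G m = 0 := fun m d h hd => sc_eq_zero_of_dvd h hd
  have hN2 : 2 ∣ Nat.card G := dvd_card_of_sc_ne_zero (by omega)
  have h25 : ¬ 5 ^ 2 ∣ Nat.card G := by
    intro h
    have h' : 25 ∣ Nat.card G := by simpa using h
    have f := frob_of (G := G) 25 {1, 5, 25} (by decide) h'
    have f' : 25 ∣ sc G 1 + (sc G 5 + sc G 25) := by simpa using f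
    obtain ⟨v1, v2⟩ := val hV 25 20 (by decide)
    unfold Val at v1
    have h25v : sc G 25 = 0 := by omega
    have f2 := frob_of (G := G) 50 {1, 2, 5, 10, 25, 50} (by decide) (by omega)
    have f2' : 50 ∣ sc G 1 + (sc G 2 + (sc G 5 + (sc G 10 + (sc G 25 + sc G 50)))) := by
      simpa using f2
    rw [z 50 25 h25v (by norm_num)] at f2'
    obtain ⟨v3, v4⟩ := val hV 10 4 (by decide)
    unfold Val at v3
    omega
  have n5 := sc_prime_sylow (G := G) 5 h5 h25
  have hn : Nat.card (Sylow 5 G) = 6 := by omega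
  have hd6 : 6 ∣ Nat.card G := hn ▸ card_sylow_dvd (G := G) 5
  have d10 := sylow_dvd_sc (G := G) 5 2 h25 (by norm_num)
  have d15 := sylow_dvd_sc (G := G) 5 3 h25 (by norm_num)
  rw [hn] at d10 d15
  have d10' : 6 ∣ sc G 10 := by simpa using d10
  have d15' : 6 ∣ sc G 15 := by simpa using d15
  have hN3 : 3 ∣ Nat.card G := by omega
  have h3 := s3 hV hN3
  have h10 : sc G 10 = 0 := by
    have f := frob_of (G := G) 10 {1, 2, 5, 10} (by decide) (by omega)
    have f' : 10 ∣ sc G 1 + (sc G 2 + (sc G 5 + sc G 10)) := by simpa using f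
    have v := hV 10
    unfold Val at v
    omega
  have h15 : sc G 15 = 0 := by
    have f := frob_of (G := G) 15 {1, 3, 5, 15} (by decide) (by omega)
    have f' : 15 ∣ sc G 1 + (sc G 3 + (sc G 5 + sc G 15)) := by simpa using f
    have v := hV 15
    unfold Val at v
    omega
  have hno : ∀ q : ℕ, q.Prime → q ≠ 5 → sc G (5 * q) = 0 := by
    intro q hq hq5
    by_cases hq2 : q = 2
    · subst hq2; simpa using h10
    by_cases hq3 : q = 3
    · subst hq3; simpa using h15
    apply sc_eq_zero_of_not_dvd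
    intro hd
    have h7 : q ∣ Nat.card G := (dvd_mul_left _ _).trans hd
    rcases primes hV hq h7 with rfl | rfl | rfl
    · exact hq2 rfl
    · exact hq3 rfl
    · exact hq5 rfl
  obtain ⟨y, hy⟩ := exists_prime_orderOf_dvd_card' (G := G) 5 h5
  have hCy := card_centralizer_eq (G := G) 5 h25 hno y hy
  have hidx := index_centralizer_le y
  rw [hy, h55] at hidx
  have hmulC := Subgroup.card_mul_index (Subgroup.centralizer ({y} : Set G))
  rw [hCy] at hmulC
  have hle : Nat.card G ≤ 120 := by omega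
  have hge : 60 ≤ Nat.card G := by
    have := sum_le (G := G) {1, 2, 3, 5}
    have f' : sc G 1 + (sc G 2 + (sc G 3 + sc G 5)) ≤ Nat.card G := by simpa using this
    omega
  have hcases : Nat.card G = 60 ∨ Nat.card G = 90 ∨ Nat.card G = 120 := by omega
  have hf6 : sc G 6 = 0 ∨ sc G 6 = 24 := by
    have f := frob_of (G := G) 6 {1, 2, 3, 6} (by decide) (by omega)
    have f' : 6 ∣ sc G 1 + (sc G 2 + (sc G 3 + sc G 6)) := by simpa using f
    have v := hV 6
    unfold Val at v
    omega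
  rcases hcases with hN | hN | hN
  · exact ⟨hN, h3, h55, h10, h15⟩
  · exfalso
    have hsum := card_eq_sum (G := G)
    rw [hN, show Nat.divisors 90 = {1, 2, 3, 5, 6, 9, 10, 15, 18, 30, 45, 90} by decide +kernel] at hsum
    simp only [Finset.sum_insert, Finset.mem_insert, Finset.mem_singleton, Finset.sum_singleton,
      Nat.reduceEqDiff, or_self, not_false_eq_true, OfNat.one_ne_ofNat] at hsum
    rw [z 30 10 h10 (by norm_num), z 45 15 h15 (by norm_num), z 90 10 h10 (by norm_num)] at hsum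
    obtain ⟨v1, v2⟩ := val hV 9 6 (by decide)
    obtain ⟨v3, v4⟩ := val hV 18 6 (by decide)
    unfold Val at v1 v3
    omega
  · exfalso
    have hsum := card_eq_sum (G := G)
    rw [hN, show Nat.divisors 120 = {1, 2, 3, 4, 5, 6, 8, 10, 12, 15, 20, 24, 30, 40, 60, 120}
      by decide +kernel] at hsum
    simp only [Finset.sum_insert, Finset.mem_insert, Finset.mem_singleton, Finset.sum_singleton,
      Nat.reduceEqDiff, or_self, not_false_eq_true, OfNat.one_ne_ofNat] at hsum
    rw [z 20 10 h10 (by norm_num), z 30 10 h10 (by norm_num), z 40 10 h10 (by norm_num),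
      z 60 10 h10 (by norm_num), z 120 10 h10 (by norm_num)] at hsum
    obtain ⟨v1, v2⟩ := val hV 4 2 (by decide)
    obtain ⟨v3, v4⟩ := val hV 8 4 (by decide)
    obtain ⟨v5, v6⟩ := val hV 12 4 (by decide)
    obtain ⟨v7, v8⟩ := val hV 24 8 (by decide)
    unfold Val at v1 v3 v5 v7
    have a4 := vs2 _ v1 v2
    have a8 := vs2 _ v3 (by omega)
    have a12 := vs2 _ v5 (by omega)
    have a24 := vs8 _ v7 v8
    clear v1 v2 v3 v4 v5 v6 v7 v8 hmulC hCy hidx hno hle hge hE
    rcases hf6 with h6 | h6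
    · rw [z 12 6 h6 (by norm_num), z 24 6 h6 (by norm_num)] at hsum
      rcases a4 with a | a | a <;> rcases a8 with b | b | b <;> omega
    · rcases a4 with a | a | a <;> rcases a8 with b | b | b <;> rcases a12 with c | c | c <;>
        rcases a24 with d | d <;> omega

theorem case_no5 (h5 : ¬ 5 ∣ Nat.card G) : False := by
  have hp : ∀ p : ℕ, p.Prime → p ∣ Nat.card G → p = 2 ∨ p = 3 := by
    intro p hpp hd
    rcases primes hV hpp hd with rfl | rfl | rfl
    · simp
    · simp
    · exact absurd hd h5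
  have h1 : sc G 1 = 1 := sc_one
  have h2 := s2 hE
  have hN0 : Nat.card G ≠ 0 := Nat.card_pos.ne'
  have z : ∀ m d, sc G d = 0 → d ∣ m → sc G m = 0 := fun m d h hd => sc_eq_zero_of_dvd h hd
  have hN2 : 2 ∣ Nat.card G := dvd_card_of_sc_ne_zero (by omega)
  have hm0 : ∀ m : ℕ, sc G m ≠ 0 → m ≠ 0 := by
    rintro m hm rfl
    exact hm sc_zero
  by_cases hN3 : 3 ∣ Nat.card G
  · have h3 := s3 hV hN3
    have hN9 : 9 ∣ Nat.card G := by
      by_contra h9
      have h9' : ¬ 3 ^ 2 ∣ Nat.card G := by simpa using h9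
      have n3 := sc_prime_sylow (G := G) 3 hN3 h9'
      have hn : Nat.card (Sylow 3 G) = 10 := by omega
      have hd10 : 10 ∣ Nat.card G := hn ▸ card_sylow_dvd (G := G) 3
      omega
    have h9 : sc G 9 = 24 := by
      have f := frob_of (G := G) 9 {1, 3, 9} (by decide) hN9
      have f' : 9 ∣ sc G 1 + (sc G 3 + sc G 9) := by simpa using f
      obtain ⟨v1, v2⟩ := val hV 9 6 (by decide)
      unfold Val at v1
      omega
    have h27 : ¬ 3 ^ (2 + 1) ∣ Nat.card G := by
      intro h
      have f := frob_of (G := G) 27 {1, 3, 9, 27} (by decide) (by simpa using h)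
      have f' : 27 ∣ sc G 1 + (sc G 3 + (sc G 9 + sc G 27)) := by simpa using f
      obtain ⟨v1, v2⟩ := val hV 27 18 (by decide)
      unfold Val at v1
      omega
    have hf6 : sc G 6 = 0 ∨ sc G 6 = 24 := by
      have f := frob_of (G := G) 6 {1, 2, 3, 6} (by decide) (by omega)
      have f' : 6 ∣ sc G 1 + (sc G 2 + (sc G 3 + sc G 6)) := by simpa using f
      have v := hV 6
      unfold Val at v
      omega
    obtain ⟨h6, h18⟩ : sc G 6 = 24 ∧ sc G 18 = 24 := by
      have f := frob_of (G := G) 18 {1, 2, 3, 6, 9, 18} (by decide) (by omega)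
      have f' : 18 ∣ sc G 1 + (sc G 2 + (sc G 3 + (sc G 6 + (sc G 9 + sc G 18)))) := by simpa using f
      obtain ⟨v1, v2⟩ := val hV 18 6 (by decide)
      unfold Val at v1
      omega
    have hge : 108 ≤ Nat.card G := by
      have := sum_le (G := G) {1, 2, 3, 6, 9, 18}
      have f' : sc G 1 + (sc G 2 + (sc G 3 + (sc G 6 + (sc G 9 + sc G 18)))) ≤ Nat.card G := by
        simpa using this
      omega
    have hN8 : 8 ∣ Nat.card G := by
      by_contra h8
      have := dvd_of_smooth (Nat.card G) 2 2 hN0 hp (by simpa using h8) h27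
      have := Nat.le_of_dvd (by norm_num) this
      omega
    have h4ne : sc G 4 ≠ 0 := by
      intro h4
      have f := frob_of (G := G) 72 {1, 2, 3, 4, 6, 8, 9, 12, 18, 24, 36, 72} (by decide +kernel) (by omega)
      have f' : 72 ∣ sc G 1 + (sc G 2 + (sc G 3 + (sc G 4 + (sc G 6 + (sc G 8 + (sc G 9 + (sc G 12 +
          (sc G 18 + (sc G 24 + (sc G 36 + sc G 72)))))))))) := by simpa using f
      rw [z 8 4 h4 (by norm_num), z 12 4 h4 (by norm_num), z 24 4 h4 (by norm_num),
        z 36 4 h4 (by norm_num), z 72 4 h4 (by norm_num)] at f'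
      omega
    have h4 : sc G 4 = 24 := by
      have f := frob_of (G := G) 12 {1, 2, 3, 4, 6, 12} (by decide) (by omega)
      have f' : 12 ∣ sc G 1 + (sc G 2 + (sc G 3 + (sc G 4 + (sc G 6 + sc G 12)))) := by simpa using f
      obtain ⟨v1, v2⟩ := val hV 4 2 (by decide)
      obtain ⟨v3, v4⟩ := val hV 12 4 (by decide)
      unfold Val at v1 v3
      omega
    have h12 : sc G 12 = 24 := by
      have f := frob_of (G := G) 36 {1, 2, 3, 4, 6, 9, 12, 18, 36} (by decide +kernel) (by omega)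
      have f' : 36 ∣ sc G 1 + (sc G 2 + (sc G 3 + (sc G 4 + (sc G 6 + (sc G 9 + (sc G 12 +
          (sc G 18 + sc G 36))))))) := by simpa using f
      obtain ⟨v1, v2⟩ := val hV 12 4 (by decide)
      obtain ⟨v3, v4⟩ := val hV 36 12 (by decide)
      unfold Val at v1 v3
      omega
    have f := frob_of (G := G) 24 {1, 2, 3, 4, 6, 8, 12, 24} (by decide +kernel) (by omega)
    have f' : 24 ∣ sc G 1 + (sc G 2 + (sc G 3 + (sc G 4 + (sc G 6 + (sc G 8 + (sc G 12 + sc G 24)))))) := by
      simpa using f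
    have f8 := frob_of (G := G) 8 {1, 2, 4, 8} (by decide) hN8
    have f8' : 8 ∣ sc G 1 + (sc G 2 + (sc G 4 + sc G 8)) := by simpa using f8
    obtain ⟨v1, v2⟩ := val hV 8 4 (by decide)
    obtain ⟨v3, v4⟩ := val hV 24 8 (by decide)
    unfold Val at v1 v3
    omega
  · -- a 2-group
    have h32 : sc G 32 = 0 := by
      obtain ⟨v1, v2⟩ := val hV 32 16 (by decide)
      unfold Val at v1
      omega
    have hL : ∀ m, sc G m ≠ 0 → m ∈ ({1, 2, 4, 8, 16} : Finset ℕ) := by
      intro m hm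
      have hd := dvd_of_smooth m 4 0 (hm0 m hm)
        (fun p hpp hdp => hp p hpp (hdp.trans (dvd_card_of_sc_ne_zero hm)))
        (fun hd => hm (sc_eq_zero_of_dvd h32 (by simpa using hd)))
        (fun hd => hN3 (by simpa using hd.trans (dvd_card_of_sc_ne_zero hm)))
      have hmem : m ∈ Nat.divisors 16 := Nat.mem_divisors.mpr ⟨by simpa using hd, by norm_num⟩
      rwa [show Nat.divisors 16 = {1, 2, 4, 8, 16} by decide] at hmem
    have hsum := card_eq_sum_of (G := G) _ hL
    have hsum' : Nat.card G = sc G 1 + (sc G 2 + (sc G 4 + (sc G 8 + sc G 16))) := by simpa using hsum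
    have key : ∀ v : ℕ, v ≠ 0 → v ≠ 1 → v ≠ 15 → (∃ m, sc G m = v) →
        sc G 4 = v ∨ sc G 8 = v ∨ sc G 16 = v := by
      intro v hv0 hv1 hv2 ⟨m, hm⟩
      have := hL m (by omega)
      simp only [Finset.mem_insert, Finset.mem_singleton] at this
      rcases this with rfl | rfl | rfl | rfl | rfl
      · omega
      · omega
      · simp [hm]
      · simp [hm]
      · simp [hm]
    have k1 := key 20 (by norm_num) (by norm_num) (by norm_num) (hE 20 (by norm_num))
    have k2 := key 24 (by norm_num) (by norm_num) (by norm_num) (hE 24 (by norm_num))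
    obtain ⟨v1, v2⟩ := val hV 4 2 (by decide)
    obtain ⟨v3, v4⟩ := val hV 8 4 (by decide)
    obtain ⟨v5, v6⟩ := val hV 16 8 (by decide)
    unfold Val at v1 v3 v5
    omega

theorem main : Nat.card G = 60 ∧ sc G 3 = 20 ∧ sc G 5 = 24 ∧ sc G 10 = 0 ∧ sc G 15 = 0 := by
  by_cases h5 : 5 ∣ Nat.card G
  · exact case5 hV hE h5
  · exact (case_no5 hV hE h5).elim

end

end Cfsg.Agent.Lib.NSE.A5
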