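import Mathlib
import Cfsg.Agent.Lib.NSE.Main

/-!
# Arithmetic for `A₆`
-/

set_option autoImplicit false

namespace Cfsg.Agent.Lib.NSE.A6

open Cfsg.Agent.Lib.NSE.Basic Cfsg.Agent.Lib.NSE.Main

variable {G : Type*} [Group G] [Finite G]

/-- The values of `sc`. -/
def Val (v : ℕ) : Prop := v = 0 ∨ v = 1 ∨ v = 45 ∨ v = 80 ∨ v = 90 ∨ v = 144

theorem prime_aux : ∀ p ∈ Finset.range 146, ∀ v ∈ ({1, 45, 80, 90, 144} : Finset ℕ),
    2 ≤ p → p ∣ 1 + v → (p - 1) ∣ v → p ∈ ({2, 3, 5, 7, 9, 46, 81, 91, 145} : Finset ℕ) := by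
  decide +kernel

section
variable (hV : ∀ m, Val (sc G m))
  (hE : ∀ v : ℕ, (v = 1 ∨ v = 45 ∨ v = 80 ∨ v = 90 ∨ v = 144) → ∃ m, sc G m = v)

include hE in
theorem s2 : sc G 2 = 45 := sc_two_of_odd 45 (by decide) (by norm_num) (hE 45 (by norm_num))

include hV in
theorem primes {p : ℕ} (hp : p.Prime) (hd : p ∣ Nat.card G) : p = 2 ∨ p = 3 ∨ p = 5 ∨ p = 7 := by
  have h0 := sc_ne_zero_of_prime hp hd
  have h1 := frob_prime hp hd
  have h2 := totient_dvd_sc (G := G) p
  rw [Nat.totient_prime hp] at h2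
  have h3 := hV p
  have hv : sc G p ∈ ({1, 45, 80, 90, 144} : Finset ℕ) := by
    simp only [Finset.mem_insert, Finset.mem_singleton]
    unfold Val at h3
    omega
  have hle : p ≤ 145 := by
    have := Nat.le_of_dvd (by omega) h1
    simp only [Finset.mem_insert, Finset.mem_singleton] at hv
    omega
  have h4 := prime_aux p (Finset.mem_range.mpr (by omega)) _ hv hp.two_le h1 h2
  simp only [Finset.mem_insert, Finset.mem_singleton] at h4
  rcases h4 with rfl | rfl | rfl | rfl | rfl | rfl | rfl | rfl | rfl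
  · simp
  · simp
  · simp
  · simp
  · norm_num at hp
  · norm_num at hp
  · norm_num at hp
  · norm_num at hp
  · norm_num at hp

include hV in
theorem val (m t : ℕ) (ht : m.totient = t) : Val (sc G m) ∧ t ∣ sc G m :=
  ⟨hV m, ht ▸ totient_dvd_sc m⟩

include hV in
theorem s3 (h : 3 ∣ Nat.card G) : sc G 3 = 80 := by
  have f := frob_prime Nat.prime_three h
  have h0 := sc_ne_zero_of_prime Nat.prime_three h
  have := hV 3
  unfold Val at this
  omega

include hV in
theorem s5 (h : 5 ∣ Nat.card G) : sc G 5 = 144 := by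
  have f := frob_prime Nat.prime_five h
  have h0 := sc_ne_zero_of_prime Nat.prime_five h
  have := hV 5
  unfold Val at this
  omega

include hV hE in
theorem no7 : ¬ 7 ∣ Nat.card G := by
  intro h7
  have hp7 : Nat.Prime 7 := by norm_num
  have : Fact (Nat.Prime 7) := ⟨hp7⟩
  have s7 : sc G 7 = 90 := by
    have f := frob_prime hp7 h7
    have h0 := sc_ne_zero_of_prime hp7 h7
    have := hV 7
    unfold Val at this
    omega
  have h1 : sc G 1 = 1 := sc_one
  have h2 := s2 hE
  have h49 : ¬ 7 ^ 2 ∣ Nat.card G := by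
    intro h
    have f := frob_of (G := G) 49 {1, 7, 49} (by decide) (by simpa using h)
    have f' : 49 ∣ sc G 1 + (sc G 7 + sc G 49) := by simpa using f
    obtain ⟨v1, v2⟩ := val hV 49 42 (by decide)
    unfold Val at v1
    omega
  have n7 := sc_prime_sylow (G := G) 7 h7 h49
  have hd := sylow_dvd_sc (G := G) 7 2 h49 (by norm_num)
  have hN2 : 2 ∣ Nat.card G := dvd_card_of_sc_ne_zero (by omega)
  have h14 : 14 ∣ Nat.card G := by omega
  have f := frob_of (G := G) 14 {1, 2, 7, 14} (by decide) h14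
  have f' : 14 ∣ sc G 1 + (sc G 2 + (sc G 7 + sc G 14)) := by simpa using f
  have hn : Nat.card (Sylow 7 G) = 15 := by omega
  rw [hn] at hd
  have v1 := hV 14
  unfold Val at v1
  have hd' : 15 ∣ sc G 14 := by simpa using hd
  omega

include hV in
theorem s9 : sc G 9 = 0 := by
  by_contra h9
  have hN9 : 9 ∣ Nat.card G := dvd_card_of_sc_ne_zero h9
  have hN3 : 3 ∣ Nat.card G := by omega
  have h3 := s3 hV hN3
  have h1 : sc G 1 = 1 := sc_one
  obtain ⟨v1, v2⟩ := val hV 9 6 (by decide)
  have h27 : ¬ 3 ^ 3 ∣ Nat.card G := by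
    intro h
    have f := frob_of (G := G) 27 {1, 3, 9, 27} (by decide) (by simpa using h)
    have f' : 27 ∣ sc G 1 + (sc G 3 + (sc G 9 + sc G 27)) := by simpa using f
    obtain ⟨v3, v4⟩ := val hV 27 18 (by decide)
    unfold Val at v1 v3
    omega
  have hc := sc_sylow (G := G) 3 2 (by simpa using hN9) (by simpa using h27) (by simpa using h9)
  rw [show (3 : ℕ) ^ 2 = 9 by norm_num, show Nat.totient 9 = 6 by decide] at hc
  have hmod : Nat.card (Sylow 3 G) % 3 = 1 := card_sylow_modEq_one 3 G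
  unfold Val at v1
  omega

end

section
variable (hV : ∀ m, Val (sc G m))
  (hE : ∀ v : ℕ, (v = 1 ∨ v = 45 ∨ v = 80 ∨ v = 90 ∨ v = 144) → ∃ m, sc G m = v)
include hV hE

theorem case5 (h5 : 5 ∣ Nat.card G) :
    Nat.card G = 360 ∧ sc G 3 = 80 ∧ sc G 5 = 144 ∧ sc G 10 = 0 ∧ sc G 15 = 0 := by
  have hp5 : Nat.Prime 5 := by norm_num
  have : Fact (Nat.Prime 5) := ⟨hp5⟩
  have h1 : sc G 1 = 1 := sc_one
  have h2 := s2 hE
  have h55 := s5 hV h5
  have h9 := s9 hV
  have h25 : ¬ 5 ^ 2 ∣ Nat.card G := by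
    intro h
    have f := frob_of (G := G) 25 {1, 5, 25} (by decide) (by simpa using h)
    have f' : 25 ∣ sc G 1 + (sc G 5 + sc G 25) := by simpa using f
    obtain ⟨v1, v2⟩ := val hV 25 20 (by decide)
    unfold Val at v1
    have h25v : sc G 25 = 80 := by omega
    have h125 : ¬ 5 ^ 3 ∣ Nat.card G := by
      intro h
      have f := frob_of (G := G) 125 {1, 5, 25, 125} (by decide) (by simpa using h)
      have f' : 125 ∣ sc G 1 + (sc G 5 + (sc G 25 + sc G 125)) := by simpa using f
      obtain ⟨v3, v4⟩ := val hV 125 100 (by decide)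
      unfold Val at v3
      omega
    have hc := sc_sylow (G := G) 5 2 (by simpa using h) (by simpa using h125)
      (by rw [show (5 : ℕ) ^ 2 = 25 by norm_num]; omega)
    rw [show (5 : ℕ) ^ 2 = 25 by norm_num, show Nat.totient 25 = 20 by decide] at hc
    have hmod : Nat.card (Sylow 5 G) % 5 = 1 := card_sylow_modEq_one 5 G
    omega
  have n5 := sc_prime_sylow (G := G) 5 h5 h25
  have hn : Nat.card (Sylow 5 G) = 36 := by omega
  have hd36 : 36 ∣ Nat.card G := hn ▸ card_sylow_dvd (G := G) 5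
  have d10 := sylow_dvd_sc (G := G) 5 2 h25 (by norm_num)
  have d15 := sylow_dvd_sc (G := G) 5 3 h25 (by norm_num)
  rw [hn] at d10 d15
  have d10' : 36 ∣ sc G 10 := by simpa using d10
  have d15' : 36 ∣ sc G 15 := by simpa using d15
  have hN3 : 3 ∣ Nat.card G := by omega
  have hN4 : 4 ∣ Nat.card G := by omega
  have h3 := s3 hV hN3
  have h4 : sc G 4 = 90 := by
    have f := frob_of (G := G) 4 {1, 2, 4} (by decide) hN4
    have f' : 4 ∣ sc G 1 + (sc G 2 + sc G 4) := by simpa using f
    have v := hV 4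
    unfold Val at v
    omega
  have h10 : sc G 10 = 0 := by
    have f := frob_of (G := G) 10 {1, 2, 5, 10} (by decide) (by omega)
    have f' : 10 ∣ sc G 1 + (sc G 2 + (sc G 5 + sc G 10)) := by simpa using f
    have v := hV 10
    unfold Val at v
    omega
  have h15 : sc G 15 = 0 := by
    have f := frob_of (G := G) 15 {1, 3, 5, 15} (by decide) (by omega)
    have f' : 15 ∣ sc G 1 + (sc G 3 + (sc G 5 + sc G 15)) := by simpa using f
    have v := hV 15
    unfold Val at v
    omega
  have hno : ∀ q : ℕ, q.Prime → q ≠ 5 → sc G (5 * q) = 0 := by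
    intro q hq hq5
    by_cases hq2 : q = 2
    · subst hq2; simpa using h10
    by_cases hq3 : q = 3
    · subst hq3; simpa using h15
    apply sc_eq_zero_of_not_dvd
    intro hd
    have h7 : q ∣ Nat.card G := (dvd_mul_left _ _).trans hd
    rcases primes hV hq h7 with rfl | rfl | rfl | rfl
    · exact hq2 rfl
    · exact hq3 rfl
    · exact hq5 rfl
    · exact no7 hV hE h7
  obtain ⟨y, hy⟩ := exists_prime_orderOf_dvd_card' (G := G) 5 h5
  have hCy := card_centralizer_eq (G := G) 5 h25 hno y hy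
  have hidx := index_centralizer_le y
  rw [hy, h55] at hidx
  have hmulC := Subgroup.card_mul_index (Subgroup.centralizer ({y} : Set G))
  rw [hCy] at hmulC
  have hle : Nat.card G ≤ 720 := by omega
  have hge : 360 ≤ Nat.card G := by
    have := sum_le (G := G) {1, 2, 3, 4, 5}
    have f' : sc G 1 + (sc G 2 + (sc G 3 + (sc G 4 + sc G 5))) ≤ Nat.card G := by simpa using this
    omega
  have hcases : Nat.card G = 360 ∨ Nat.card G = 540 ∨ Nat.card G = 720 := by omega
  rcases hcases with hN | hN | hN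
  · exact ⟨hN, h3, h55, h10, h15⟩
  · exfalso
    have hsum := card_eq_sum (G := G)
    rw [hN, show Nat.divisors 540 = {1, 2, 3, 4, 5, 6, 9, 10, 12, 15, 18, 20, 27, 30, 36, 45, 54, 60,
      90, 108, 135, 180, 270, 540} by decide +kernel] at hsum
    simp only [Finset.sum_insert, Finset.mem_insert, Finset.mem_singleton, Finset.sum_singleton,
      Nat.reduceEqDiff, or_self, not_false_eq_true, OfNat.one_ne_ofNat] at hsum
    have z : ∀ m d, sc G d = 0 → d ∣ m → sc G m = 0 := fun m d h hd => sc_eq_zero_of_dvd h hd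
    rw [z 18 9 h9 (by norm_num), z 20 10 h10 (by norm_num), z 27 9 h9 (by norm_num),
      z 30 10 h10 (by norm_num), z 36 9 h9 (by norm_num), z 45 9 h9 (by norm_num),
      z 54 9 h9 (by norm_num), z 60 10 h10 (by norm_num), z 90 10 h10 (by norm_num),
      z 108 9 h9 (by norm_num), z 135 9 h9 (by norm_num), z 180 10 h10 (by norm_num),
      z 270 10 h10 (by norm_num), z 540 10 h10 (by norm_num)] at hsum
    have f := frob_of (G := G) 6 {1, 2, 3, 6} (by decide) (by omega)
    have f' : 6 ∣ sc G 1 + (sc G 2 + (sc G 3 + sc G 6)) := by simpa using f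
    obtain ⟨v1, v2⟩ := val hV 6 2 (by decide)
    obtain ⟨v3, v4⟩ := val hV 12 4 (by decide)
    unfold Val at v1 v3
    omega
  · exfalso
    have f := frob_of (G := G) 16 {1, 2, 4, 8, 16} (by decide) (by omega)
    have f' : 16 ∣ sc G 1 + (sc G 2 + (sc G 4 + (sc G 8 + sc G 16))) := by simpa using f
    obtain ⟨v1, v2⟩ := val hV 8 4 (by decide)
    obtain ⟨v3, v4⟩ := val hV 16 8 (by decide)
    unfold Val at v1 v3
    omega

theorem case_no5 (h5 : ¬ 5 ∣ Nat.card G) : False := by
  have hp : ∀ p : ℕ, p.Prime → p ∣ Nat.card G → p = 2 ∨ p = 3 := by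
    intro p hpp hd
    rcases primes hV hpp hd with rfl | rfl | rfl | rfl
    · simp
    · simp
    · exact absurd hd h5
    · exact absurd hd (no7 hV hE)
  have h1 : sc G 1 = 1 := sc_one
  have h2 := s2 hE
  have h9 := s9 hV
  have hN0 : Nat.card G ≠ 0 := Nat.card_pos.ne'
  have hsmooth : ∀ m : ℕ, sc G m ≠ 0 → ∀ p : ℕ, p.Prime → p ∣ m → p = 2 ∨ p = 3 := by
    intro m hm p hpp hd
    exact hp p hpp (hd.trans (dvd_card_of_sc_ne_zero hm))
  have hm0 : ∀ m : ℕ, sc G m ≠ 0 → m ≠ 0 := by
    rintro m hm rfl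
    exact hm sc_zero
  have hno9 : ∀ m : ℕ, sc G m ≠ 0 → ¬ 3 ^ 2 ∣ m := by
    intro m hm hd
    exact hm (sc_eq_zero_of_dvd h9 (by simpa using hd))
  have hN4 : 4 ∣ Nat.card G := by
    by_contra h4
    have key : ∀ v : ℕ, v ≠ 0 → v ≠ 1 → v ≠ 45 → v ≠ 80 → (∃ m, sc G m = v) → sc G 6 = v := by
      intro v hv0 hv1 hv2 hv3 ⟨m, hm⟩
      have hmne : sc G m ≠ 0 := by omega
      have hd := dvd_of_smooth m 1 1 (hm0 m hmne) (hsmooth m hmne)
        (fun hd => h4 (by simpa using hd.trans (dvd_card_of_sc_ne_zero hmne))) (hno9 m hmne)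
      have hmem : m ∈ Nat.divisors 6 := Nat.mem_divisors.mpr ⟨by simpa using hd, by norm_num⟩
      rw [show Nat.divisors 6 = {1, 2, 3, 6} by decide] at hmem
      simp only [Finset.mem_insert, Finset.mem_singleton] at hmem
      have v3 := hV 3
      unfold Val at v3
      rcases hmem with rfl | rfl | rfl | rfl
      · omega
      · omega
      · by_cases h3 : 3 ∣ Nat.card G
        · have := s3 hV h3
          omega
        · have := sc_eq_zero_of_not_dvd h3
          omega
      · exact hm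
    have k1 := key 90 (by norm_num) (by norm_num) (by norm_num) (by norm_num) (hE 90 (by norm_num))
    have k2 := key 144 (by norm_num) (by norm_num) (by norm_num) (by norm_num) (hE 144 (by norm_num))
    omega
  have h4 : sc G 4 = 90 := by
    have f := frob_of (G := G) 4 {1, 2, 4} (by decide) hN4
    have f' : 4 ∣ sc G 1 + (sc G 2 + sc G 4) := by simpa using f
    have v := hV 4
    unfold Val at v
    omega
  have h16 : ¬ 2 ^ (3 + 1) ∣ Nat.card G := by
    intro h
    have f := frob_of (G := G) 16 {1, 2, 4, 8, 16} (by decide) (by simpa using h)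
    have f' : 16 ∣ sc G 1 + (sc G 2 + (sc G 4 + (sc G 8 + sc G 16))) := by simpa using f
    obtain ⟨v1, v2⟩ := val hV 8 4 (by decide)
    obtain ⟨v3, v4⟩ := val hV 16 8 (by decide)
    unfold Val at v1 v3
    omega
  have hN3 : 3 ∣ Nat.card G := by
    by_contra h3
    have key : ∀ v : ℕ, v ≠ 0 → v ≠ 1 → v ≠ 45 → v ≠ 90 → (∃ m, sc G m = v) → sc G 8 = v := by
      intro v hv0 hv1 hv2 hv3 ⟨m, hm⟩
      have hmne : sc G m ≠ 0 := by omega
      have hd := dvd_of_smooth m 3 0 (hm0 m hmne) (hsmooth m hmne)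
        (fun hd => h16 (hd.trans (dvd_card_of_sc_ne_zero hmne)))
        (fun hd => h3 (by simpa using hd.trans (dvd_card_of_sc_ne_zero hmne)))
      have hmem : m ∈ Nat.divisors 8 := Nat.mem_divisors.mpr ⟨by simpa using hd, by norm_num⟩
      rw [show Nat.divisors 8 = {1, 2, 4, 8} by decide] at hmem
      simp only [Finset.mem_insert, Finset.mem_singleton] at hmem
      rcases hmem with rfl | rfl | rfl | rfl
      · omega
      · omega
      · omega
      · exact hm
    have k1 := key 80 (by norm_num) (by norm_num) (by norm_num) (by norm_num) (hE 80 (by norm_num))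
    have k2 := key 144 (by norm_num) (by norm_num) (by norm_num) (by norm_num) (hE 144 (by norm_num))
    omega
  have h3 := s3 hV hN3
  have z : ∀ m d, sc G d = 0 → d ∣ m → sc G m = 0 := fun m d h hd => sc_eq_zero_of_dvd h hd
  have h243 : ¬ 3 ^ (4 + 1) ∣ Nat.card G := by
    intro h
    have f := frob_of (G := G) 243 {1, 3, 9, 27, 81, 243} (by decide) (by simpa using h)
    have f' : 243 ∣ sc G 1 + (sc G 3 + (sc G 9 + (sc G 27 + (sc G 81 + sc G 243)))) := by
      simpa using f
    rw [z 27 9 h9 (by norm_num), z 81 9 h9 (by norm_num), z 243 9 h9 (by norm_num)] at f'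
    omega
  have hdN := dvd_of_smooth (Nat.card G) 3 4 hN0 hp h16 h243
  obtain ⟨m, hm⟩ := hE 144 (by norm_num)
  have hge : 360 ≤ Nat.card G := by
    have hne : ∀ d, sc G d ≠ 144 → m ≠ d := by
      rintro d hd rfl
      exact hd hm
    have := sum_le (G := G) {m, 1, 2, 3, 4}
    rw [Finset.sum_insert (by
      simp only [Finset.mem_insert, Finset.mem_singleton, not_or]
      exact ⟨hne 1 (by omega), hne 2 (by omega), hne 3 (by omega), hne 4 (by omega)⟩)] at this
    have f' : sc G m + (sc G 1 + (sc G 2 + (sc G 3 + sc G 4))) ≤ Nat.card G := by simpa using this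
    omega
  have hN : Nat.card G = 648 := by
    have hd' : Nat.card G ∣ 648 := by simpa using hdN
    have hle := Nat.le_of_dvd (by norm_num) hd'
    exact (Nat.eq_of_dvd_of_lt_two_mul (by norm_num) hd' (by omega)).symm
  have f := frob_of (G := G) 162 {1, 2, 3, 6, 9, 18, 27, 54, 81, 162} (by decide +kernel) (by omega)
  have f' : 162 ∣ sc G 1 + (sc G 2 + (sc G 3 + (sc G 6 + (sc G 9 + (sc G 18 + (sc G 27 + (sc G 54 +
      (sc G 81 + sc G 162)))))))) := by simpa using f
  rw [z 18 9 h9 (by norm_num), z 27 9 h9 (by norm_num), z 54 9 h9 (by norm_num),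
    z 81 9 h9 (by norm_num), z 162 9 h9 (by norm_num)] at f'
  have v := hV 6
  unfold Val at v
  omega

theorem main : Nat.card G = 360 ∧ sc G 3 = 80 ∧ sc G 5 = 144 ∧ sc G 10 = 0 ∧ sc G 15 = 0 := by
  by_cases h5 : 5 ∣ Nat.card G
  · exact case5 hV hE h5
  · exact (case_no5 hV hE h5).elim

end

end Cfsg.Agent.Lib.NSE.A6
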