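import Mathlib
import Cfsg.Agent.Lib.NSE.Basic

/-!
# Counting elements of given order in small alternating groups
-/

set_option autoImplicit false

namespace Cfsg.Agent.Lib.NSE.Rhs

open Equiv Equiv.Perm Finset
open Cfsg.Agent.Lib.NSE.Basic

theorem sc_alt (n m : ℕ) (hm : 0 < m) :
    sc (alternatingGroup (Fin n)) m =
      (Finset.univ.filter (fun g : Perm (Fin n) => sign g = 1 ∧ g ^ m = 1 ∧
        ∀ k ∈ Finset.range m, k ≠ 0 → g ^ k ≠ 1)).card := by
  have h1 : ∀ g : Perm (Fin n), orderOf g = m ↔ g ^ m = 1 ∧ ∀ k ∈ Finset.range m, k ≠ 0 → g ^ k ≠ 1 := by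
    intro g
    rw [orderOf_eq_iff hm]
    constructor
    · rintro ⟨h1, h2⟩
      exact ⟨h1, fun k hk hk0 => h2 k (Finset.mem_range.mp hk) (Nat.pos_of_ne_zero hk0)⟩
    · rintro ⟨h1, h2⟩
      exact ⟨h1, fun k hk hk0 => h2 k (Finset.mem_range.mpr hk) hk0.ne'⟩
  rw [← Nat.subtype_card (p := fun g : Perm (Fin n) => sign g = 1 ∧ g ^ m = 1 ∧
        ∀ k ∈ Finset.range m, k ≠ 0 → g ^ k ≠ 1) _ (by simp)]
  unfold sc
  refine Nat.card_congr ?_
  exact
    { toFun := fun g => ⟨g.1.1, Equiv.Perm.mem_alternatingGroup.mp g.1.2, (h1 _).mp (by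
        rw [Subgroup.orderOf_coe]
        exact g.2)⟩
      invFun := fun g => ⟨⟨g.1, Equiv.Perm.mem_alternatingGroup.mpr g.2.1⟩, by
        rw [Subgroup.orderOf_mk]
        exact (h1 _).mpr g.2.2⟩
      left_inv := fun g => rfl
      right_inv := fun g => rfl }

theorem c41 : sc (alternatingGroup (Fin 4)) 1 = 1 := by rw [sc_alt _ _ (by norm_num)]; decide +kernel
theorem c42 : sc (alternatingGroup (Fin 4)) 2 = 3 := by rw [sc_alt _ _ (by norm_num)]; decide +kernel
theorem c43 : sc (alternatingGroup (Fin 4)) 3 = 8 := by rw [sc_alt _ _ (by norm_num)]; decide +kernel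
theorem c51 : sc (alternatingGroup (Fin 5)) 1 = 1 := by rw [sc_alt _ _ (by norm_num)]; decide +kernel
theorem c52 : sc (alternatingGroup (Fin 5)) 2 = 15 := by rw [sc_alt _ _ (by norm_num)]; decide +kernel
theorem c53 : sc (alternatingGroup (Fin 5)) 3 = 20 := by rw [sc_alt _ _ (by norm_num)]; decide +kernel
theorem c55 : sc (alternatingGroup (Fin 5)) 5 = 24 := by rw [sc_alt _ _ (by norm_num)]; decide +kernel
theorem c61 : sc (alternatingGroup (Fin 6)) 1 = 1 := by rw [sc_alt _ _ (by norm_num)]; decide +kernel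
theorem c62 : sc (alternatingGroup (Fin 6)) 2 = 45 := by rw [sc_alt _ _ (by norm_num)]; decide +kernel
theorem c63 : sc (alternatingGroup (Fin 6)) 3 = 80 := by rw [sc_alt _ _ (by norm_num)]; decide +kernel
theorem c64 : sc (alternatingGroup (Fin 6)) 4 = 90 := by rw [sc_alt _ _ (by norm_num)]; decide +kernel
theorem c65 : sc (alternatingGroup (Fin 6)) 5 = 144 := by rw [sc_alt _ _ (by norm_num)]; decide +kernel

theorem o4 : ∀ g : Perm (Fin 4), sign g = 1 → g ^ 2 = 1 ∨ g ^ 3 = 1 := by decide +kernel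
theorem o5 : ∀ g : Perm (Fin 5), sign g = 1 → g ^ 2 = 1 ∨ g ^ 3 = 1 ∨ g ^ 5 = 1 := by decide +kernel
theorem o6 : ∀ g : Perm (Fin 6), sign g = 1 → g ^ 3 = 1 ∨ g ^ 4 = 1 ∨ g ^ 5 = 1 := by decide +kernel

theorem rhs4 : ((fun m : ℕ => Nat.card {g : ↥(alternatingGroup (Fin 4)) // orderOf g = m}) ''
    Set.range (orderOf : ↥(alternatingGroup (Fin 4)) → ℕ)) = {1, 3, 8} := by
  ext v
  constructor
  · rintro ⟨_, ⟨g, rfl⟩, rfl⟩
    have hg := o4 g.1 (Equiv.Perm.mem_alternatingGroup.mp g.2)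
    have h1 : orderOf g ∣ 2 ∨ orderOf g ∣ 3 := by
      rw [← Subgroup.orderOf_coe]
      exact hg.imp orderOf_dvd_of_pow_eq_one orderOf_dvd_of_pow_eq_one
    have h2 : orderOf g = 1 ∨ orderOf g = 2 ∨ orderOf g = 3 := by
      rcases h1 with h | h
      · have := (Nat.dvd_prime Nat.prime_two).mp h
        tauto
      · have := (Nat.dvd_prime Nat.prime_three).mp h
        tauto
    show sc _ (orderOf g) ∈ _
    rcases h2 with h | h | h <;> rw [h]
    · rw [c41]; simp
    · rw [c42]; simp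
    · rw [c43]; simp
  · intro hv
    have key : ∀ m, sc (alternatingGroup (Fin 4)) m = v → sc (alternatingGroup (Fin 4)) m ≠ 0 →
        v ∈ ((fun m : ℕ => Nat.card {g : ↥(alternatingGroup (Fin 4)) // orderOf g = m}) ''
          Set.range (orderOf : ↥(alternatingGroup (Fin 4)) → ℕ)) := by
      intro m hm h0
      obtain ⟨g, hg⟩ := sc_ne_zero_iff.mp h0
      exact ⟨m, ⟨g, hg⟩, hm⟩
    simp only [Set.mem_insert_iff, Set.mem_singleton_iff] at hv
    rcases hv with rfl | rfl | rfl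
    · exact key 1 c41 (by rw [c41]; norm_num)
    · exact key 2 c42 (by rw [c42]; norm_num)
    · exact key 3 c43 (by rw [c43]; norm_num)

theorem rhs5 : ((fun m : ℕ => Nat.card {g : ↥(alternatingGroup (Fin 5)) // orderOf g = m}) ''
    Set.range (orderOf : ↥(alternatingGroup (Fin 5)) → ℕ)) = {1, 15, 20, 24} := by
  ext v
  constructor
  · rintro ⟨_, ⟨g, rfl⟩, rfl⟩
    have hg := o5 g.1 (Equiv.Perm.mem_alternatingGroup.mp g.2)
    have h1 : orderOf g ∣ 2 ∨ orderOf g ∣ 3 ∨ orderOf g ∣ 5 := by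
      rw [← Subgroup.orderOf_coe]
      exact hg.imp orderOf_dvd_of_pow_eq_one (Or.imp orderOf_dvd_of_pow_eq_one orderOf_dvd_of_pow_eq_one)
    have h2 : orderOf g = 1 ∨ orderOf g = 2 ∨ orderOf g = 3 ∨ orderOf g = 5 := by
      rcases h1 with h | h | h
      · have := (Nat.dvd_prime Nat.prime_two).mp h
        tauto
      · have := (Nat.dvd_prime Nat.prime_three).mp h
        tauto
      · have := (Nat.dvd_prime Nat.prime_five).mp h
        tauto
    show sc _ (orderOf g) ∈ _
    rcases h2 with h | h | h | h <;> rw [h]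
    · rw [c51]; simp
    · rw [c52]; simp
    · rw [c53]; simp
    · rw [c55]; simp
  · intro hv
    have key : ∀ m, sc (alternatingGroup (Fin 5)) m = v → sc (alternatingGroup (Fin 5)) m ≠ 0 →
        v ∈ ((fun m : ℕ => Nat.card {g : ↥(alternatingGroup (Fin 5)) // orderOf g = m}) ''
          Set.range (orderOf : ↥(alternatingGroup (Fin 5)) → ℕ)) := by
      intro m hm h0
      obtain ⟨g, hg⟩ := sc_ne_zero_iff.mp h0
      exact ⟨m, ⟨g, hg⟩, hm⟩
    simp only [Set.mem_insert_iff, Set.mem_singleton_iff] at hv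
    rcases hv with rfl | rfl | rfl | rfl
    · exact key 1 c51 (by rw [c51]; norm_num)
    · exact key 2 c52 (by rw [c52]; norm_num)
    · exact key 3 c53 (by rw [c53]; norm_num)
    · exact key 5 c55 (by rw [c55]; norm_num)

theorem rhs6 : ((fun m : ℕ => Nat.card {g : ↥(alternatingGroup (Fin 6)) // orderOf g = m}) ''
    Set.range (orderOf : ↥(alternatingGroup (Fin 6)) → ℕ)) = {1, 45, 80, 90, 144} := by
  ext v
  constructor
  · rintro ⟨_, ⟨g, rfl⟩, rfl⟩
    have hg := o6 g.1 (Equiv.Perm.mem_alternatingGroup.mp g.2)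
    have h1 : orderOf g ∣ 3 ∨ orderOf g ∣ 4 ∨ orderOf g ∣ 5 := by
      rw [← Subgroup.orderOf_coe]
      exact hg.imp orderOf_dvd_of_pow_eq_one (Or.imp orderOf_dvd_of_pow_eq_one orderOf_dvd_of_pow_eq_one)
    have h2 : orderOf g = 1 ∨ orderOf g = 2 ∨ orderOf g = 3 ∨ orderOf g = 4 ∨ orderOf g = 5 := by
      rcases h1 with h | h | h
      · have := (Nat.dvd_prime Nat.prime_three).mp h
        tauto
      · have h3 : orderOf g ≤ 4 := Nat.le_of_dvd (by norm_num) h
        have h4 : 0 < orderOf g := orderOf_pos g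
        interval_cases (orderOf g) <;> simp_all
      · have := (Nat.dvd_prime Nat.prime_five).mp h
        tauto
    show sc _ (orderOf g) ∈ _
    rcases h2 with h | h | h | h | h <;> rw [h]
    · rw [c61]; simp
    · rw [c62]; simp
    · rw [c63]; simp
    · rw [c64]; simp
    · rw [c65]; simp
  · intro hv
    have key : ∀ m, sc (alternatingGroup (Fin 6)) m = v → sc (alternatingGroup (Fin 6)) m ≠ 0 →
        v ∈ ((fun m : ℕ => Nat.card {g : ↥(alternatingGroup (Fin 6)) // orderOf g = m}) ''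
          Set.range (orderOf : ↥(alternatingGroup (Fin 6)) → ℕ)) := by
      intro m hm h0
      obtain ⟨g, hg⟩ := sc_ne_zero_iff.mp h0
      exact ⟨m, ⟨g, hg⟩, hm⟩
    simp only [Set.mem_insert_iff, Set.mem_singleton_iff] at hv
    rcases hv with rfl | rfl | rfl | rfl | rfl
    · exact key 1 c61 (by rw [c61]; norm_num)
    · exact key 2 c62 (by rw [c62]; norm_num)
    · exact key 3 c63 (by rw [c63]; norm_num)
    · exact key 4 c64 (by rw [c64]; norm_num)
    · exact key 5 c65 (by rw [c65]; norm_num)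

end Cfsg.Agent.Lib.NSE.Rhs
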